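import Mathlib
import Cfsg.Agent.Lib.Helper73.HA.Defs
import Cfsg.Agent.Lib.Helper73.HT.Main4

/-!
# Project HA (S2538, S2535): common lemmas for the packages STRUCT-SEVEN / STRUCT-EIGHT
(helper15)
-/

set_option autoImplicit false

namespace Cfsg.Agent.Lib.Helper15.HA

open Equiv Cfsg.Agent.Lib.Helper73.HT Cfsg.Agent.Lib.Helper78.HT

/-- A Hall `π`-subgroup contained in a `π`-subgroup is equal to it. -/
theorem hall_eq_of_le {G : Type*} [Group G] [Finite G] {π : Set ℕ} {H K : Subgroup G}
    (hH : Cfsg.IsPiHall π H) (hle : H ≤ K)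
    (hK : ∀ p : ℕ, p.Prime → p ∣ Nat.card K → p ∈ π) : H = K := by
  by_contra hne
  have hrel : H.relIndex K ≠ 1 := by
    intro h1
    exact hne (le_antisymm hle (Subgroup.relIndex_eq_one.mp h1))
  obtain ⟨p, hp, hpd⟩ := Nat.exists_prime_and_dvd hrel
  have h1 : H.relIndex K ∣ Nat.card K := Subgroup.relIndex_dvd_card H K
  have h2 : H.relIndex K ∣ H.index := Subgroup.relIndex_dvd_index_of_le hle
  exact hH.2 p hp (hK p hp (hpd.trans h1)) (hpd.trans h2)

/-- The order of the symmetric group. -/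
theorem card_perm_mul_index {Ω : Type*} [Fintype Ω] [DecidableEq Ω] (K : Subgroup (Perm Ω)) :
    Nat.card K * K.index = (Fintype.card Ω).factorial := by
  rw [Subgroup.card_mul_index, Nat.card_eq_fintype_card, Fintype.card_perm]

variable {Ω : Type*} [Fintype Ω] [DecidableEq Ω] {H : Subgroup (Perm Ω)}

/-- Different orbits are disjoint. -/
theorem orb_disjoint {x y : Ω} (hy : y ∉ orb H x) : Disjoint (orb H y) (orb H x) := by
  rw [Finset.disjoint_left]
  intro z hzy hzx
  apply hy
  obtain ⟨h, hh, rfl⟩ := mem_orb.1 hzy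
  exact (orb_inv x h hh y).1 hzx

/-- An orbit which is everything gives transitivity. -/
theorem trans_of_orb_eq_univ {x : Ω} (hx : orb H x = Finset.univ) :
    ∀ y z : Ω, ∃ h ∈ H, h y = z := by
  intro y z
  exact orb_trans x y (hx ▸ Finset.mem_univ y) z (hx ▸ Finset.mem_univ z)

end Cfsg.Agent.Lib.Helper15.HA
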