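import Mathlib
import Cfsg.Agent.Lib.Helper15.HA.Common

/-!
# Project HA, package STRUCT-EIGHT (helper15)

A Hall `{2,3}`-subgroup of the symmetric group of degree 8 is the stabilizer of a partition
into two 4-sets.
-/

set_option autoImplicit false

namespace Cfsg.Agent.Lib.Helper15.HA

open Equiv Cfsg.Agent.Lib.Helper73.HT Cfsg.Agent.Lib.Helper78.HT

universe u

theorem choose_eight_even (k : ℕ) (h1 : 1 ≤ k) (h7 : k ≤ 7) : 2 ∣ Nat.choose 8 k := by
  interval_cases k <;> decide

theorem lemStructEight : Cfsg.Agent.Lib.Helper73.HA.LemStructEight.{u} := by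
  intro Ω _ _ π H hH hcard hπ
  have h2π : 2 ∈ π := (hπ 2 Nat.prime_two (by norm_num)).2 (Or.inl rfl)
  have h3π : 3 ∈ π := (hπ 3 Nat.prime_three (by norm_num)).2 (Or.inr rfl)
  have h5π : 5 ∉ π := fun h => by
    have := (hπ 5 (by norm_num) (by norm_num)).1 h
    omega
  have : Nonempty Ω := Fintype.card_pos_iff.mp (by omega)
  -- transitivity
  have horb : ∀ x : Ω, (orb H x).card = 8 := by
    intro x
    have hpos : 1 ≤ (orb H x).card := Finset.card_pos.mpr ⟨x, self_mem_orb x⟩
    have hle : (orb H x).card ≤ 8 := hcard ▸ Finset.card_le_univ _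
    have hch := Cfsg.Agent.Lib.Helper73.HT.hall_choose hH (orb H x) (orb_inv x) 2
      Nat.prime_two h2π
    rw [hcard] at hch
    by_contra hne
    exact hch (choose_eight_even _ hpos (by omega))
  -- the largest class
  have hmax3 : 3 ≤ maxCls H :=
    (mem_pi_iff_le_max hH h2π (by omega) 3 Nat.prime_three (by omega)).1 h3π
  have hmax5 : ¬ 5 ≤ maxCls H := fun h =>
    h5π ((mem_pi_iff_le_max hH h2π (by omega) 5 (by norm_num) (by omega)).2 h)
  obtain ⟨x, hx⟩ := exists_card_cls_eq (H := H)
  have hdvd : (cls H x).card ∣ 8 := by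
    have := card_cls_dvd_card_orb (H := H) x
    rwa [horb x] at this
  have hs4 : (cls H x).card = 4 := by
    have h1 : (cls H x).card ≤ 4 := by omega
    have h3 : 3 ≤ (cls H x).card := by omega
    interval_cases h : (cls H x).card
    · omega
    · rfl
  refine ⟨cls H x, hs4, ?_⟩
  -- `H` is contained in the stabilizer of the partition
  have hle : H ≤ pairStab (cls H x) := by
    intro h hh
    by_cases hhx : h x ∈ cls H x
    · left
      intro y
      have := cls_smul hh x y
      rwa [cls_eq_of_mem hhx] at this
    · right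
      have hdisj : Disjoint (cls H (h x)) (cls H x) := by
        rw [Finset.disjoint_left]
        intro z hz1 hz2
        apply hhx
        have e1 := cls_eq_of_mem hz1
        have e2 := cls_eq_of_mem hz2
        rw [← e2, e1]
        exact self_mem_cls (h x)
      have hc4 : (cls H (h x)).card = 4 := by rw [card_cls_smul hh x, hs4]
      have hcompl : cls H (h x) = (cls H x)ᶜ := by
        apply Finset.eq_of_subset_of_card_le
        · intro z hz
          rw [Finset.mem_compl]
          exact fun hz2 => Finset.disjoint_left.1 hdisj hz hz2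
        · rw [Finset.card_compl, hcard, hs4, hc4]
      intro y
      have h1 := cls_smul hh x y
      rw [hcompl, Finset.mem_compl] at h1
      constructor
      · intro hy hy2
        exact (h1.2 hy2) hy
      · intro hy
        by_contra hy2
        exact hy (h1.1 hy2)
  -- orders
  have hidx : (pairStab (cls H x)).index = 35 := by
    have h1 := index_pairStab (cls H x) (by rw [Finset.card_compl, hcard, hs4])
    rw [hcard, hs4] at h1
    have h2 : Nat.choose 8 4 = 70 := by decide
    omega
  have hcardK : Nat.card (pairStab (cls H x)) = 2 ^ 7 * 3 ^ 2 := by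
    have h1 := card_perm_mul_index (pairStab (cls H x))
    rw [hidx, hcard] at h1
    have h2 : Nat.factorial 8 = 40320 := by decide
    omega
  have heq : H = pairStab (cls H x) := by
    apply hall_eq_of_le hH hle
    intro p hp hdvd
    rw [hcardK] at hdvd
    rcases prime_dvd_two_three p 7 2 hp hdvd with h | h
    · exact h ▸ h2π
    · exact h ▸ h3π
  have hge : pairStab (cls H x) ≤ H := heq.ge
  intro g
  exact ⟨fun hg => hle hg, fun hg => hge hg⟩

end Cfsg.Agent.Lib.Helper15.HA
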