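import Mathlib
import Cfsg.Agent.Lib.Helper15.HA.Common

/-!
# Project HA, package STRUCT-SEVEN (helper15)

A Hall `{2,3}`-subgroup of the symmetric group of degree 7 is the stabilizer of a 4-set.
-/

set_option autoImplicit false

namespace Cfsg.Agent.Lib.Helper15.HA

open Equiv Cfsg.Agent.Lib.Helper73.HT Cfsg.Agent.Lib.Helper78.HT

universe u

theorem choose_seven_cases (k : ℕ) (h1 : 1 ≤ k) (h7 : k ≤ 7) (h2 : ¬ 3 ∣ Nat.choose 7 k) :
    k = 1 ∨ k = 3 ∨ k = 4 ∨ k = 6 ∨ k = 7 := by
  interval_cases k <;> first | omega | (exfalso; revert h2; decide)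

theorem lemStructSeven : Cfsg.Agent.Lib.Helper73.HA.LemStructSeven.{u} := by
  intro Ω _ _ π H hH hcard hπ
  have h2π : 2 ∈ π := (hπ 2 Nat.prime_two (by norm_num)).2 (Or.inl rfl)
  have h3π : 3 ∈ π := (hπ 3 Nat.prime_three (by norm_num)).2 (Or.inr rfl)
  have h5π : 5 ∉ π := fun h => by
    have := (hπ 5 (by norm_num) (by norm_num)).1 h
    omega
  have h7π : 7 ∉ π := fun h => by
    have := (hπ 7 (by norm_num) (by norm_num)).1 h
    omega
  have : Nonempty Ω := Fintype.card_pos_iff.mp (by omega)
  -- orbit sizes
  have horb : ∀ x : Ω, (orb H x).card = 1 ∨ (orb H x).card = 3 ∨ (orb H x).card = 4 ∨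
      (orb H x).card = 6 ∨ (orb H x).card = 7 := by
    intro x
    have hpos : 1 ≤ (orb H x).card := Finset.card_pos.mpr ⟨x, self_mem_orb x⟩
    have hle : (orb H x).card ≤ 7 := hcard ▸ Finset.card_le_univ _
    have hch := Cfsg.Agent.Lib.Helper73.HT.hall_choose hH (orb H x) (orb_inv x) 3
      Nat.prime_three h3π
    rw [hcard] at hch
    exact choose_seven_cases _ hpos hle hch
  -- not transitive
  have h7 : ∀ x : Ω, (orb H x).card ≠ 7 := by
    intro x hx
    have huniv : orb H x = Finset.univ := by
      apply Finset.eq_univ_of_card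
      rw [hx, hcard]
    have hd := Cfsg.Agent.Lib.Helper62.HT.card_dvd_of_transitive (trans_of_orb_eq_univ huniv)
    rw [hcard] at hd
    exact h7π (hH.1 7 (by norm_num) hd)
  -- no fixed point
  have h1 : ∀ x : Ω, (orb H x).card ≠ 1 := by
    intro ω hω
    have hfix : ∀ h ∈ H, h ω = ω := by
      intro h hh
      have hmem : h ω ∈ orb H ω := mem_orb.2 ⟨h, hh, rfl⟩
      obtain ⟨a, ha⟩ := Finset.card_eq_one.1 hω
      rw [ha, Finset.mem_singleton] at hmem
      have hself : ω ∈ orb H ω := self_mem_orb ω
      rw [ha, Finset.mem_singleton] at hself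
      rw [hmem, hself]
    have hinv : ∀ h ∈ H, ∀ y, h y ∈ Finset.univ.erase ω ↔ y ∈ Finset.univ.erase ω := by
      intro h hh y
      simp only [Finset.mem_erase, Finset.mem_univ, and_true, ne_eq]
      constructor
      · intro hne hy
        exact hne (hy ▸ hfix h hh)
      · intro hne hy
        apply hne
        apply h.injective
        rw [hy, hfix h hh]
    obtain ⟨H', hH', -⟩ := hall_restrict hH (Finset.univ.erase ω) hinv
    have hc6 : Fintype.card {y // y ∈ Finset.univ.erase ω} = 6 := by
      rw [Fintype.card_coe, Finset.card_erase_of_mem (Finset.mem_univ ω), Finset.card_univ,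
        hcard]
    have hgood := hall_good 6 {y // y ∈ Finset.univ.erase ω} π H' hc6 hH'
    rcases hgood with hg | hg | hg | hg
    · have := hg 2 3 Nat.prime_two Nat.prime_three h2π h3π (by norm_num) (by norm_num)
      omega
    · exact h5π (hg 5 (by norm_num) (by norm_num))
    · exact absurd hg.1 (by norm_num)
    · rcases hg.1 with h | h <;> omega
  -- no orbit of size 6
  have h6 : ∀ x : Ω, (orb H x).card ≠ 6 := by
    intro x hx
    have hex : ∃ y, y ∉ orb H x := by
      by_contra hall
      push Not at hall
      have : orb H x = Finset.univ := Finset.eq_univ_iff_forall.2 hall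
      rw [this, Finset.card_univ, hcard] at hx
      omega
    obtain ⟨y, hy⟩ := hex
    have hd := orb_disjoint hy
    have hsum : (orb H y).card + (orb H x).card ≤ 7 := by
      rw [← Finset.card_union_of_disjoint hd, ← hcard]
      exact Finset.card_le_univ _
    have hpos : 1 ≤ (orb H y).card := Finset.card_pos.mpr ⟨y, self_mem_orb y⟩
    exact h1 y (by omega)
  have h34 : ∀ x : Ω, (orb H x).card = 3 ∨ (orb H x).card = 4 := by
    intro x
    rcases horb x with h | h | h | h | h
    · exact absurd h (h1 x)
    · exact Or.inl h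
    · exact Or.inr h
    · exact absurd h (h6 x)
    · exact absurd h (h7 x)
  -- an orbit of size 4
  have hex4 : ∃ x : Ω, (orb H x).card = 4 := by
    obtain ⟨x⟩ := ‹Nonempty Ω›
    rcases h34 x with hx | hx
    · have hex : ∃ y, y ∉ orb H x := by
        by_contra hall
        push Not at hall
        have : orb H x = Finset.univ := Finset.eq_univ_iff_forall.2 hall
        rw [this, Finset.card_univ, hcard] at hx
        omega
      obtain ⟨y, hy⟩ := hex
      rcases h34 y with hy3 | hy4
      · exfalso
        have hd := orb_disjoint hy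
        have hex2 : ∃ z, z ∉ orb H y ∪ orb H x := by
          by_contra hall
          push Not at hall
          have : orb H y ∪ orb H x = Finset.univ := Finset.eq_univ_iff_forall.2 hall
          have hc := Finset.card_union_of_disjoint hd
          rw [this, Finset.card_univ, hcard, hy3, hx] at hc
          omega
        obtain ⟨z, hz⟩ := hex2
        rw [Finset.mem_union, not_or] at hz
        have hdz : Disjoint (orb H z) (orb H y ∪ orb H x) := by
          rw [Finset.disjoint_union_right]
          exact ⟨orb_disjoint hz.1, orb_disjoint hz.2⟩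
        have hsum : (orb H z).card + (orb H y ∪ orb H x).card ≤ 7 := by
          rw [← Finset.card_union_of_disjoint hdz, ← hcard]
          exact Finset.card_le_univ _
        rw [Finset.card_union_of_disjoint hd, hy3, hx] at hsum
        rcases h34 z with hz3 | hz4 <;> omega
      · exact ⟨y, hy4⟩
    · exact ⟨x, hx⟩
  obtain ⟨x, hx4⟩ := hex4
  refine ⟨orb H x, hx4, ?_⟩
  have hle : H ≤ setStab (orb H x) := fun h hh => orb_inv x h hh
  have hidx : (setStab (orb H x)).index = 35 := by
    rw [index_setStab, hcard, hx4]
    decide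
  have hcardK : Nat.card (setStab (orb H x)) = 2 ^ 4 * 3 ^ 2 := by
    have h1 := card_perm_mul_index (setStab (orb H x))
    rw [hidx, hcard] at h1
    have h2 : Nat.factorial 7 = 5040 := by decide
    omega
  have heq : H = setStab (orb H x) := by
    apply hall_eq_of_le hH hle
    intro p hp hdvd
    rw [hcardK] at hdvd
    rcases prime_dvd_two_three p 4 2 hp hdvd with h | h
    · exact h ▸ h2π
    · exact h ▸ h3π
  have hge : setStab (orb H x) ≤ H := heq.ge
  intro g
  exact ⟨fun hg => hle hg, fun hg => hge hg⟩

end Cfsg.Agent.Lib.Helper15.HA
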