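import Mathlib
import Cfsg.Agent.Lib.Helper73.HA.Defs2
import Cfsg.Agent.Lib.Helper15.HA.Common

/-!
# Project HA, package W-78 (helper15)

In degree 7 or 8 there is a `{2,3}`-subgroup of the alternating group which stabilizes no
partition into a 4-set and its complement: the even permutations of six points preserving a
partition into two triples (the other points are fixed).
-/

set_option autoImplicit false

namespace Cfsg.Agent.Lib.Helper15.HA

open Equiv Cfsg.Agent.Lib.Helper73.HT Cfsg.Agent.Lib.Helper78.HT

universe u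

/-- The block `{0, 2, 4}` of `Fin 6`. -/
def blockE : Finset (Fin 6) := {0, 2, 4}

/-- The rotation by two steps: `(0 2 4)(1 3 5)`. -/
def rotA : Perm (Fin 6) := swap 0 2 * swap 2 4 * (swap 1 3 * swap 3 5)

/-- An even permutation exchanging the two blocks: `(0 1)(2 3)(4 5)` times `(0 2)`. -/
def mixM : Perm (Fin 6) := swap 0 1 * swap 2 3 * (swap 4 5 * swap 0 2)

/-- The even permutations of `Fin 6` preserving the partition into evens and odds. -/
def h6 : Subgroup (Perm (Fin 6)) := pairStab blockE ⊓ alternatingGroup (Fin 6)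

theorem rotA_mem : rotA ∈ h6 := by
  refine ⟨Or.inl ?_, Equiv.Perm.mem_alternatingGroup.2 ?_⟩
  · unfold rotA blockE
    decide
  · unfold rotA
    simp only [Equiv.Perm.sign_mul]
    rw [Equiv.Perm.sign_swap (by decide), Equiv.Perm.sign_swap (by decide),
      Equiv.Perm.sign_swap (by decide), Equiv.Perm.sign_swap (by decide)]
    decide

theorem mixM_mem : mixM ∈ h6 := by
  refine ⟨Or.inr ?_, Equiv.Perm.mem_alternatingGroup.2 ?_⟩
  · unfold mixM blockE
    decide
  · unfold mixM
    simp only [Equiv.Perm.sign_mul]
    rw [Equiv.Perm.sign_swap (by decide), Equiv.Perm.sign_swap (by decide),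
      Equiv.Perm.sign_swap (by decide), Equiv.Perm.sign_swap (by decide)]
    decide

theorem h6_trans_aux : ∀ i j : Fin 6, ∃ k : Fin 3, ∃ l : Fin 2,
    (rotA ^ (k : ℕ) * mixM ^ (l : ℕ)) i = j := by
  unfold rotA mixM
  decide

theorem h6_trans (i j : Fin 6) : ∃ σ ∈ h6, σ i = j := by
  obtain ⟨k, l, h⟩ := h6_trans_aux i j
  exact ⟨_, h6.mul_mem (h6.pow_mem rotA_mem _) (h6.pow_mem mixM_mem _), h⟩

theorem card_h6_dvd : Nat.card h6 ∣ 2 ^ 3 * 3 ^ 2 := by
  have hidx : (pairStab blockE).index = 10 := by
    have h1 := index_pairStab blockE (by decide)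
    rw [Fintype.card_fin] at h1
    have h2 : blockE.card = 3 := by decide
    rw [h2] at h1
    have h3 : Nat.choose 6 3 = 20 := by decide
    omega
  have hcardK : Nat.card (pairStab blockE) = 2 ^ 3 * 3 ^ 2 := by
    have h1 := card_perm_mul_index (pairStab blockE)
    rw [hidx, Fintype.card_fin] at h1
    have h2 : Nat.factorial 6 = 720 := by decide
    omega
  rw [← hcardK]
  exact Subgroup.card_dvd_of_le inf_le_left

theorem lemW78 : Cfsg.Agent.Lib.Helper73.HA.LemW78.{u} := by
  intro Ω _ _ π hcard h2π h3π
  have hc6 : Fintype.card (Fin 6) ≤ Fintype.card Ω := by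
    rw [Fintype.card_fin]
    rcases hcard with h | h <;> omega
  obtain ⟨ι⟩ := Function.Embedding.nonempty_of_card_le hc6
  -- a point outside the image
  have hex : ∃ p : Ω, p ∉ Set.range ι := by
    by_contra hall
    push Not at hall
    have hsurj : Function.Surjective ι := fun y => hall y
    have := Fintype.card_le_of_surjective ι hsurj
    rw [Fintype.card_fin] at this
    rcases hcard with h | h <;> omega
  obtain ⟨p, hp⟩ := hex
  refine ⟨h6.map (Perm.viaEmbeddingHom ι), ?_, ?_, ?_⟩
  · -- even
    rintro _ ⟨σ, hσ, rfl⟩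
    rw [Equiv.Perm.mem_alternatingGroup, Perm.viaEmbeddingHom_apply]
    have h1 : Equiv.Perm.sign σ = 1 := Equiv.Perm.mem_alternatingGroup.1 hσ.2
    rw [← h1]
    unfold Perm.viaEmbedding
    exact @Equiv.Perm.sign_extendDomain (Fin 6) _ Ω _ _ _ σ (fun x => x ∈ Set.range ι.toFun)
      (fun a => Classical.propDecidable _) (ofInjective ι.1 ι.2)
  · -- a `π`-group
    intro q hq hdvd
    have h1 : q ∣ 2 ^ 3 * 3 ^ 2 := (hdvd.trans (Subgroup.card_map_dvd _ _)).trans card_h6_dvd
    rcases prime_dvd_two_three q 3 2 hq h1 with h | h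
    · exact h ▸ h2π
    · exact h ▸ h3π
  · intro s hs4
    by_contra hall
    push Not at hall
    -- every element preserves `s`
    have hpres : ∀ σ ∈ h6, ∀ x, Perm.viaEmbedding σ ι x ∈ s ↔ x ∈ s := by
      intro σ hσ
      have hmem : Perm.viaEmbeddingHom ι σ ∈ h6.map (Perm.viaEmbeddingHom ι) :=
        Subgroup.mem_map_of_mem _ hσ
      rcases hall _ hmem with h | h
      · exact h
      · exfalso
        have hfix : Perm.viaEmbeddingHom ι σ p = p :=
          Perm.viaEmbedding_apply_of_notMem σ ι p hp
        have := h p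
        rw [hfix] at this
        by_cases hps : p ∈ s
        · exact (this.1 hps) hps
        · exact hps (this.2 hps)
    -- `s` meets the image
    have hmeet : ∃ i : Fin 6, ι i ∈ s := by
      by_contra hno
      push Not at hno
      have hd : Disjoint s (Finset.univ.map ι) := by
        rw [Finset.disjoint_left]
        intro x hx hx2
        obtain ⟨i, -, rfl⟩ := Finset.mem_map.1 hx2
        exact hno i hx
      have hle : (s ∪ Finset.univ.map ι).card ≤ Fintype.card Ω := Finset.card_le_univ _
      rw [Finset.card_union_of_disjoint hd, hs4, Finset.card_map, Finset.card_univ,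
        Fintype.card_fin] at hle
      rcases hcard with h | h <;> omega
    obtain ⟨i, hi⟩ := hmeet
    -- the image is contained in `s`
    have hsub : Finset.univ.map ι ⊆ s := by
      intro x hx
      obtain ⟨j, -, rfl⟩ := Finset.mem_map.1 hx
      obtain ⟨σ, hσ, hσij⟩ := h6_trans i j
      have h1 := (hpres σ hσ (ι i)).2 hi
      rw [Perm.viaEmbedding_apply, hσij] at h1
      exact h1
    have hle := Finset.card_le_card hsub
    rw [Finset.card_map, Finset.card_univ, Fintype.card_fin, hs4] at hle
    omega

end Cfsg.Agent.Lib.Helper15.HA
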